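import Cfsg.Agent.Lib.H64.TCMCC.Chk
set_option autoImplicit false
set_option maxRecDepth 100000
set_option linter.all false
namespace H64.TCMCC
open H35.TC
section
variable {G : Type} [Group G] {g : Lt → G} {H : Subgroup G}
/-- hypotheses -/
abbrev Hy (g : Lt → G) (H : Subgroup G) : Prop := (∀ x, g (inv x) = (g x)⁻¹) ∧ (∀ r ∈ rels, (r.map g).prod = 1) ∧ ∀ r ∈ subs, (r.map g).prod ∈ H
theorem hM0 : 0 < M := by decide
theorem hat {r W : List Lt} {x : Lt} (hr : (r.map g).prod = 1) (k : ℕ) (h : r.drop k ++ r.take k = W ++ [x]) (z : G ⧸ H) : fa g x (act (fa g) W z) = z := hole_at hr k h z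
theorem pat (hy : Hy g H) {r W1 W2 : List Lt} (hr : (r.map g).prod = 1) (k : ℕ) (h : r.drop k ++ r.take k = W1 ++ (W2.map inv).reverse) (z : G ⧸ H) : act (fa g) W1 z = act (fa g) W2 z := pair_at hy.1 hr k h z
theorem ivt (hy : Hy g H) (x x' : Lt) (hx : inv x = x') (z : G ⧸ H) : fa g x (fa g x' z) = z := inv_rel hy.1 x x' hx z
theorem rf_0 (hy : Hy g H) : (([.d, .d] : List Lt).map g).prod = 1 := hy.2.1 _ (by decide +kernel)
theorem rb_0 (hy : Hy g H) : (([.d, .d] : List Lt).map g).prod = 1 := inv_at hy.1 (rf_0 hy)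
theorem rf_1 (hy : Hy g H) : (([.s, .s, .s, .s, .s] : List Lt).map g).prod = 1 := hy.2.1 _ (by decide +kernel)
theorem rb_1 (hy : Hy g H) : (([.si, .si, .si, .si, .si] : List Lt).map g).prod = 1 := inv_at hy.1 (rf_1 hy)
theorem rf_2 (hy : Hy g H) : (([.d, .ri, .ri, .d, .p, .p] : List Lt).map g).prod = 1 := hy.2.1 _ (by decide +kernel)
theorem rb_2 (hy : Hy g H) : (([.pi, .pi, .d, .r, .r, .d] : List Lt).map g).prod = 1 := inv_at hy.1 (rf_2 hy)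
theorem rf_3 (hy : Hy g H) : (([.d, .si, .si, .d, .q, .q] : List Lt).map g).prod = 1 := hy.2.1 _ (by decide +kernel)
theorem rb_3 (hy : Hy g H) : (([.qi, .qi, .d, .s, .s, .d] : List Lt).map g).prod = 1 := inv_at hy.1 (rf_3 hy)
theorem rf_4 (hy : Hy g H) : (([.d, .s, .ri, .si, .d, .q, .p, .qi] : List Lt).map g).prod = 1 := hy.2.1 _ (by decide +kernel)
theorem rb_4 (hy : Hy g H) : (([.q, .pi, .qi, .d, .s, .r, .si, .d] : List Lt).map g).prod = 1 := inv_at hy.1 (rf_4 hy)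
theorem rf_5 (hy : Hy g H) : (([.q, .si, .q, .d, .qi, .s, .qi, .d] : List Lt).map g).prod = 1 := hy.2.1 _ (by decide +kernel)
theorem rb_5 (hy : Hy g H) : (([.d, .q, .si, .q, .d, .qi, .s, .qi] : List Lt).map g).prod = 1 := inv_at hy.1 (rf_5 hy)
theorem rf_6 (hy : Hy g H) : (([.d, .si, .d, .q, .p, .p, .p, .p] : List Lt).map g).prod = 1 := hy.2.1 _ (by decide +kernel)
theorem rb_6 (hy : Hy g H) : (([.pi, .pi, .pi, .pi, .qi, .d, .s, .d] : List Lt).map g).prod = 1 := inv_at hy.1 (rf_6 hy)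
theorem rf_7 (hy : Hy g H) : (([.si, .qi, .s, .q, .d, .qi, .si, .q, .s, .d] : List Lt).map g).prod = 1 := hy.2.1 _ (by decide +kernel)
theorem rb_7 (hy : Hy g H) : (([.d, .si, .qi, .s, .q, .d, .qi, .si, .q, .s] : List Lt).map g).prod = 1 := inv_at hy.1 (rf_7 hy)
theorem rf_8 (hy : Hy g H) : (([.pi, .pi, .ri, .ri, .pi, .r, .r, .p, .p, .r] : List Lt).map g).prod = 1 := hy.2.1 _ (by decide +kernel)
theorem rb_8 (hy : Hy g H) : (([.ri, .pi, .pi, .ri, .ri, .p, .r, .r, .p, .p] : List Lt).map g).prod = 1 := inv_at hy.1 (rf_8 hy)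
theorem rf_9 (hy : Hy g H) : (([.r, .qi, .pi, .pi, .q, .ri, .p, .qi, .p, .p, .q] : List Lt).map g).prod = 1 := hy.2.1 _ (by decide +kernel)
theorem rb_9 (hy : Hy g H) : (([.qi, .pi, .pi, .q, .pi, .r, .qi, .p, .p, .q, .ri] : List Lt).map g).prod = 1 := inv_at hy.1 (rf_9 hy)
theorem rf_10 (hy : Hy g H) : (([.ri, .pi, .pi, .r, .qi, .pi, .qi, .p, .p, .q, .q] : List Lt).map g).prod = 1 := hy.2.1 _ (by decide +kernel)
theorem rb_10 (hy : Hy g H) : (([.qi, .qi, .pi, .pi, .q, .p, .q, .ri, .p, .p, .r] : List Lt).map g).prod = 1 := inv_at hy.1 (rf_10 hy)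
theorem rf_11 (hy : Hy g H) : (([.ri, .p, .ri, .ri, .pi, .r, .pi, .qi, .p, .p, .q] : List Lt).map g).prod = 1 := hy.2.1 _ (by decide +kernel)
theorem rb_11 (hy : Hy g H) : (([.qi, .pi, .pi, .q, .p, .ri, .p, .r, .r, .pi, .r] : List Lt).map g).prod = 1 := inv_at hy.1 (rf_11 hy)
theorem rf_12 (hy : Hy g H) : (([.r, .qi, .ri, .ri, .q, .ri, .p, .p, .qi, .p, .q] : List Lt).map g).prod = 1 := hy.2.1 _ (by decide +kernel)
theorem rb_12 (hy : Hy g H) : (([.qi, .pi, .q, .pi, .pi, .r, .qi, .r, .r, .q, .ri] : List Lt).map g).prod = 1 := inv_at hy.1 (rf_12 hy)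
theorem rf_13 (hy : Hy g H) : (([.s, .q, .s, .qi, .si, .p, .p, .q, .p, .qi, .qi] : List Lt).map g).prod = 1 := hy.2.1 _ (by decide +kernel)
theorem rb_13 (hy : Hy g H) : (([.q, .q, .pi, .qi, .pi, .pi, .s, .q, .si, .qi, .si] : List Lt).map g).prod = 1 := inv_at hy.1 (rf_13 hy)
theorem rf_14 (hy : Hy g H) : (([.r, .si, .pi, .pi, .s, .ri, .p, .p, .qi, .pi, .q] : List Lt).map g).prod = 1 := hy.2.1 _ (by decide +kernel)
theorem rb_14 (hy : Hy g H) : (([.qi, .p, .q, .pi, .pi, .r, .si, .p, .p, .s, .ri] : List Lt).map g).prod = 1 := inv_at hy.1 (rf_14 hy)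
theorem rf_15 (hy : Hy g H) : (([.p, .pi] : List Lt).map g).prod = 1 := hy.2.1 _ (by decide +kernel)
theorem rb_15 (hy : Hy g H) : (([.p, .pi] : List Lt).map g).prod = 1 := inv_at hy.1 (rf_15 hy)
theorem rf_16 (hy : Hy g H) : (([.pi, .p] : List Lt).map g).prod = 1 := hy.2.1 _ (by decide +kernel)
theorem rb_16 (hy : Hy g H) : (([.pi, .p] : List Lt).map g).prod = 1 := inv_at hy.1 (rf_16 hy)
theorem rf_17 (hy : Hy g H) : (([.q, .qi] : List Lt).map g).prod = 1 := hy.2.1 _ (by decide +kernel)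
theorem rb_17 (hy : Hy g H) : (([.q, .qi] : List Lt).map g).prod = 1 := inv_at hy.1 (rf_17 hy)
theorem rf_18 (hy : Hy g H) : (([.qi, .q] : List Lt).map g).prod = 1 := hy.2.1 _ (by decide +kernel)
theorem rb_18 (hy : Hy g H) : (([.qi, .q] : List Lt).map g).prod = 1 := inv_at hy.1 (rf_18 hy)
theorem rf_19 (hy : Hy g H) : (([.r, .ri] : List Lt).map g).prod = 1 := hy.2.1 _ (by decide +kernel)
theorem rb_19 (hy : Hy g H) : (([.r, .ri] : List Lt).map g).prod = 1 := inv_at hy.1 (rf_19 hy)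
theorem rf_20 (hy : Hy g H) : (([.ri, .r] : List Lt).map g).prod = 1 := hy.2.1 _ (by decide +kernel)
theorem rb_20 (hy : Hy g H) : (([.ri, .r] : List Lt).map g).prod = 1 := inv_at hy.1 (rf_20 hy)
theorem rf_21 (hy : Hy g H) : (([.s, .si] : List Lt).map g).prod = 1 := hy.2.1 _ (by decide +kernel)
theorem rb_21 (hy : Hy g H) : (([.s, .si] : List Lt).map g).prod = 1 := inv_at hy.1 (rf_21 hy)
theorem rf_22 (hy : Hy g H) : (([.si, .s] : List Lt).map g).prod = 1 := hy.2.1 _ (by decide +kernel)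
theorem rb_22 (hy : Hy g H) : (([.si, .s] : List Lt).map g).prod = 1 := inv_at hy.1 (rf_22 hy)
/-- the points of the nodes -/
noncomputable def cP (g : Lt → G) (H : Subgroup G) : ℕ → G ⧸ H := cc (fa g) lt P ((1 : G) : G ⧸ H)
/-- soundness of an entry -/
abbrev Gd (g : Lt → G) (H : Subgroup G) (x : Lt) (u : ℕ) : Prop := Good (fa g) T MG M (cP g H) x u
/-- soundness of a merge -/
abbrev GdM (g : Lt → G) (H : Subgroup G) (u : ℕ) : Prop := GoodM (fa g) T MG M (cP g H) u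
theorem dp_p_0_s (hy : Hy g H)
    (j u : ℕ) (hu : u < M) (h : dp_p_0 j u = true) : Gd g H Lt.p u := by
  unfold dp_p_0 at h
  rcases brec_true h with h | h
  · exact lH_good (T := T) (x := Lt.p) hM0 [] [] (by rw [show cP g H 0 = _ from cc_zero]; exact sub_rel hy.1 (hy.2.2 _ (by decide))) h
  · exact lS_good (T := T) (x := Lt.p) hM0 hu [Lt.p, Lt.q, Lt.ri, Lt.p, Lt.ri, Lt.ri, Lt.pi, Lt.r, Lt.pi, Lt.qi] (hat (rf_11 hy) 9 rfl) h
theorem dp_p_1_s (hy : Hy g H)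
    (j u : ℕ) (hu : u < M) (h : dp_p_1 j u = true) : Gd g H Lt.p u := by
  unfold dp_p_1 at h
  rcases brec_true h with h | h
  · exact lS_good (T := T) (x := Lt.p) hM0 hu [Lt.r, Lt.qi, Lt.qi, Lt.pi, Lt.pi, Lt.q, Lt.p, Lt.q, Lt.ri, Lt.p] (hat (rb_10 hy) 10 rfl) h
  · exact lS_good (T := T) (x := Lt.p) hM0 hu [Lt.p, Lt.q, Lt.p, Lt.qi, Lt.qi, Lt.s, Lt.q, Lt.s, Lt.qi, Lt.si] (hat (rf_13 hy) 6 rfl) h
theorem dp_p_2_s (hy : Hy g H)
    (j u : ℕ) (hu : u < M) (h : dp_p_2 j u = true) : Gd g H Lt.p u := by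
  unfold dp_p_2 at h
  rcases brec_true h with h | h
  · exact lS_good (T := T) (x := Lt.p) hM0 hu [Lt.qi, Lt.d, Lt.s, Lt.ri, Lt.si, Lt.d, Lt.q] (hat (rf_4 hy) 7 rfl) h
  · exact dp_p_1_s hy j u hu h
theorem dp_p_3_s (hy : Hy g H)
    (j u : ℕ) (hu : u < M) (h : dp_p_3 j u = true) : Gd g H Lt.p u := by
  unfold dp_p_3 at h
  rcases brec_true h with h | h
  · exact dp_p_0_s hy j u hu h
  · exact dp_p_2_s hy j u hu h
theorem dp_p_4_s (hy : Hy g H)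
    (j u : ℕ) (hu : u < M) (h : dp_p_4 j u = true) : Gd g H Lt.p u := by
  unfold dp_p_4 at h
  rcases brec_true h with h | h
  · exact lS_good (T := T) (x := Lt.p) hM0 hu [Lt.p, Lt.d, Lt.si, Lt.d, Lt.q, Lt.p, Lt.p] (hat (rf_6 hy) 7 rfl) h
  · exact lF_good (T := T) (x := Lt.p) hM0 [Lt.r, Lt.r, Lt.p, Lt.p, Lt.ri, Lt.pi, Lt.pi, Lt.ri, Lt.ri] (hat (rb_8 hy) 6 rfl) h
theorem dp_p_5_s (hy : Hy g H)
    (j u : ℕ) (hu : u < M) (h : dp_p_5 j u = true) : Gd g H Lt.p u := by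
  unfold dp_p_5 at h
  rcases brec_true h with h | h
  · exact lS_good (T := T) (x := Lt.p) hM0 hu [Lt.r, Lt.r, Lt.pi, Lt.r, Lt.qi, Lt.pi, Lt.pi, Lt.q, Lt.p, Lt.ri] (hat (rb_11 hy) 7 rfl) h
  · exact dp_p_4_s hy j u hu h
theorem dp_p_6_s (hy : Hy g H)
    (j u : ℕ) (hu : u < M) (h : dp_p_6 j u = true) : Gd g H Lt.p u := by
  unfold dp_p_6 at h
  rcases brec_true h with h | h
  · exact lS_good (T := T) (x := Lt.p) hM0 hu [Lt.d, Lt.ri, Lt.ri, Lt.d, Lt.p] (hat (rf_2 hy) 0 rfl) h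
  · exact lS_good (T := T) (x := Lt.p) hM0 hu [Lt.p, Lt.d, Lt.ri, Lt.ri, Lt.d] (hat (rf_2 hy) 5 rfl) h
theorem dp_p_7_s (hy : Hy g H)
    (j u : ℕ) (hu : u < M) (h : dp_p_7 j u = true) : Gd g H Lt.p u := by
  unfold dp_p_7 at h
  rcases brec_true h with h | h
  · exact lF_good (T := T) (x := Lt.p) hM0 [Lt.p, Lt.d, Lt.si, Lt.d, Lt.q, Lt.p, Lt.p] (hat (rf_6 hy) 7 rfl) h
  · exact dp_p_6_s hy j u hu h
theorem dp_p_8_s (hy : Hy g H)
    (j u : ℕ) (hu : u < M) (h : dp_p_8 j u = true) : Gd g H Lt.p u := by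
  unfold dp_p_8 at h
  rcases brec_true h with h | h
  · exact dp_p_5_s hy j u hu h
  · exact dp_p_7_s hy j u hu h
theorem dp_p_9_s (hy : Hy g H)
    (j u : ℕ) (hu : u < M) (h : dp_p_9 j u = true) : Gd g H Lt.p u := by
  unfold dp_p_9 at h
  rcases brec_true h with h | h
  · exact dp_p_3_s hy j u hu h
  · exact dp_p_8_s hy j u hu h
theorem dp_p_10_s (hy : Hy g H)
    (j u : ℕ) (hu : u < M) (h : dp_p_10 j u = true) : Gd g H Lt.p u := by
  unfold dp_p_10 at h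
  rcases brec_true h with h | h
  · exact lS_good (T := T) (x := Lt.p) hM0 hu [Lt.pi] (hat (rf_15 hy) 1 rfl) h
  · exact dp_p_9_s hy j u hu h
theorem dp_p_11_s (hy : Hy g H)
    (j u : ℕ) (hu : u < M) (h : dp_p_11 j u = true) : Gd g H Lt.p u := by
  unfold dp_p_11 at h
  rcases brec_true h with h | h
  · exact lF1_good (T := T) (x := Lt.p) hM0 .pi (hat (rf_15 hy) 1 rfl) h
  · exact dp_p_10_s hy j u hu h
theorem snd_p (hy : Hy g H)
    (j u : ℕ) (hu : u < M) (h : disp_p j u = true) : Gd g H Lt.p u := by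
  unfold disp_p at h
  rcases brec_true h with h | h
  · rcases brec_true h with h | h
    · exact lDef_good (T := T) (x := Lt.p) (by decide) rfl h
    · exact lPar_good (T := T) (x := Lt.p) (x' := Lt.pi) (by decide) rfl (ivt hy _ _ rfl) h
  · exact dp_p_11_s hy j u hu h
theorem snc_p (hy : Hy g H)
    (j u : ℕ) (hu : u < M) (h : chk_p j u = true) : (T Lt.p u < A ∧ Gd g H Lt.p u) ∨ (A ≤ T Lt.p u ∧ MG u < A) := by
  unfold chk_p at h
  cases hb : Nat.ble A (T_p u) with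
  | true => rw [hb] at h; exact Or.inr ⟨le_of_ble hb, le_of_ble h⟩
  | false => rw [hb] at h; exact Or.inl ⟨lt_of_ble_false hb, snd_p hy j u hu h⟩
theorem dp_pi_0_s (hy : Hy g H)
    (j u : ℕ) (hu : u < M) (h : dp_pi_0 j u = true) : Gd g H Lt.pi u := by
  unfold dp_pi_0 at h
  rcases brec_true h with h | h
  · exact lS_good (T := T) (x := Lt.pi) hM0 hu [Lt.pi, Lt.q, Lt.p, Lt.ri, Lt.p, Lt.r, Lt.r, Lt.pi, Lt.r, Lt.qi] (hat (rb_11 hy) 2 rfl) h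
  · exact lF_good (T := T) (x := Lt.pi) hM0 [Lt.pi, Lt.r, Lt.qi, Lt.pi, Lt.qi, Lt.p, Lt.p, Lt.q, Lt.q, Lt.ri] (hat (rf_10 hy) 2 rfl) h
theorem dp_pi_1_s (hy : Hy g H)
    (j u : ℕ) (hu : u < M) (h : dp_pi_1 j u = true) : Gd g H Lt.pi u := by
  unfold dp_pi_1 at h
  rcases brec_true h with h | h
  · exact lS_good (T := T) (x := Lt.pi) hM0 hu [Lt.d, Lt.r, Lt.r, Lt.d, Lt.pi] (hat (rb_2 hy) 2 rfl) h
  · exact dp_pi_0_s hy j u hu h
theorem dp_pi_2_s (hy : Hy g H)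
    (j u : ℕ) (hu : u < M) (h : dp_pi_2 j u = true) : Gd g H Lt.pi u := by
  unfold dp_pi_2 at h
  rcases brec_true h with h | h
  · exact lF_good (T := T) (x := Lt.pi) hM0 [Lt.r, Lt.pi, Lt.qi, Lt.p, Lt.p, Lt.q, Lt.ri, Lt.p, Lt.ri, Lt.ri] (hat (rf_11 hy) 5 rfl) h
  · exact lS_good (T := T) (x := Lt.pi) hM0 hu [Lt.r, Lt.pi, Lt.qi, Lt.p, Lt.p, Lt.q, Lt.ri, Lt.p, Lt.ri, Lt.ri] (hat (rf_11 hy) 5 rfl) h
theorem dp_pi_3_s (hy : Hy g H)
    (j u : ℕ) (hu : u < M) (h : dp_pi_3 j u = true) : Gd g H Lt.pi u := by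
  unfold dp_pi_3 at h
  rcases brec_true h with h | h
  · exact lF_good (T := T) (x := Lt.pi) hM0 [Lt.pi, Lt.q, Lt.ri, Lt.p, Lt.qi, Lt.p, Lt.p, Lt.q, Lt.r, Lt.qi] (hat (rf_9 hy) 3 rfl) h
  · exact dp_pi_2_s hy j u hu h
theorem dp_pi_4_s (hy : Hy g H)
    (j u : ℕ) (hu : u < M) (h : dp_pi_4 j u = true) : Gd g H Lt.pi u := by
  unfold dp_pi_4 at h
  rcases brec_true h with h | h
  · exact lS_good (T := T) (x := Lt.pi) hM0 hu [Lt.pi, Lt.d, Lt.r, Lt.r, Lt.d] (hat (rb_2 hy) 1 rfl) h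
  · exact dp_pi_3_s hy j u hu h
theorem dp_pi_5_s (hy : Hy g H)
    (j u : ℕ) (hu : u < M) (h : dp_pi_5 j u = true) : Gd g H Lt.pi u := by
  unfold dp_pi_5 at h
  rcases brec_true h with h | h
  · exact lS_good (T := T) (x := Lt.pi) hM0 hu [Lt.r, Lt.r, Lt.p, Lt.p, Lt.r, Lt.pi, Lt.pi, Lt.ri, Lt.ri] (hat (rf_8 hy) 5 rfl) h
  · exact lF_good (T := T) (x := Lt.pi) hM0 [Lt.q, Lt.pi, Lt.r, Lt.qi, Lt.p, Lt.p, Lt.q, Lt.ri, Lt.qi, Lt.pi] (hat (rb_9 hy) 3 rfl) h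
theorem dp_pi_6_s (hy : Hy g H)
    (j u : ℕ) (hu : u < M) (h : dp_pi_6 j u = true) : Gd g H Lt.pi u := by
  unfold dp_pi_6 at h
  rcases brec_true h with h | h
  · exact lS_good (T := T) (x := Lt.pi) hM0 hu [Lt.qi, Lt.d, Lt.s, Lt.r, Lt.si, Lt.d, Lt.q] (hat (rb_4 hy) 2 rfl) h
  · exact lS_good (T := T) (x := Lt.pi) hM0 hu [Lt.pi, Lt.pi, Lt.pi, Lt.qi, Lt.d, Lt.s, Lt.d] (hat (rb_6 hy) 1 rfl) h
theorem dp_pi_7_s (hy : Hy g H)
    (j u : ℕ) (hu : u < M) (h : dp_pi_7 j u = true) : Gd g H Lt.pi u := by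
  unfold dp_pi_7 at h
  rcases brec_true h with h | h
  · exact lS_good (T := T) (x := Lt.pi) hM0 hu [Lt.pi, Lt.r, Lt.si, Lt.p, Lt.p, Lt.s, Lt.ri, Lt.qi, Lt.p, Lt.q] (hat (rb_14 hy) 4 rfl) h
  · exact dp_pi_6_s hy j u hu h
theorem dp_pi_8_s (hy : Hy g H)
    (j u : ℕ) (hu : u < M) (h : dp_pi_8 j u = true) : Gd g H Lt.pi u := by
  unfold dp_pi_8 at h
  rcases brec_true h with h | h
  · exact dp_pi_5_s hy j u hu h
  · exact dp_pi_7_s hy j u hu h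
theorem dp_pi_9_s (hy : Hy g H)
    (j u : ℕ) (hu : u < M) (h : dp_pi_9 j u = true) : Gd g H Lt.pi u := by
  unfold dp_pi_9 at h
  rcases brec_true h with h | h
  · exact dp_pi_4_s hy j u hu h
  · exact dp_pi_8_s hy j u hu h
theorem dp_pi_10_s (hy : Hy g H)
    (j u : ℕ) (hu : u < M) (h : dp_pi_10 j u = true) : Gd g H Lt.pi u := by
  unfold dp_pi_10 at h
  rcases brec_true h with h | h
  · exact dp_pi_1_s hy j u hu h
  · exact dp_pi_9_s hy j u hu h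
theorem dp_pi_11_s (hy : Hy g H)
    (j u : ℕ) (hu : u < M) (h : dp_pi_11 j u = true) : Gd g H Lt.pi u := by
  unfold dp_pi_11 at h
  rcases brec_true h with h | h
  · rcases brec_true h with h | h
    · exact lF1_good (T := T) (x := Lt.pi) hM0 .p (hat (rf_15 hy) 0 rfl) h
    · exact lS_good (T := T) (x := Lt.pi) hM0 hu [Lt.p] (hat (rf_15 hy) 0 rfl) h
  · exact dp_pi_10_s hy j u hu h
theorem snd_pi (hy : Hy g H)
    (j u : ℕ) (hu : u < M) (h : disp_pi j u = true) : Gd g H Lt.pi u := by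
  unfold disp_pi at h
  rcases brec_true h with h | h
  · rcases brec_true h with h | h
    · exact lPar_good (T := T) (x := Lt.pi) (x' := Lt.p) (by decide) rfl (ivt hy _ _ rfl) h
    · exact lDef_good (T := T) (x := Lt.pi) (by decide) rfl h
  · exact dp_pi_11_s hy j u hu h
theorem snc_pi (hy : Hy g H)
    (j u : ℕ) (hu : u < M) (h : chk_pi j u = true) : (T Lt.pi u < A ∧ Gd g H Lt.pi u) ∨ (A ≤ T Lt.pi u ∧ MG u < A) := by
  unfold chk_pi at h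
  cases hb : Nat.ble A (T_pi u) with
  | true => rw [hb] at h; exact Or.inr ⟨le_of_ble hb, le_of_ble h⟩
  | false => rw [hb] at h; exact Or.inl ⟨lt_of_ble_false hb, snd_pi hy j u hu h⟩
theorem dp_q_0_s (hy : Hy g H)
    (j u : ℕ) (hu : u < M) (h : dp_q_0 j u = true) : Gd g H Lt.q u := by
  unfold dp_q_0 at h
  rcases brec_true h with h | h
  · exact lS_good (T := T) (x := Lt.q) hM0 hu [Lt.qi] (hat (rf_17 hy) 1 rfl) h
  · exact lF_good (T := T) (x := Lt.q) hM0 [Lt.q, Lt.d, Lt.si, Lt.si, Lt.d] (hat (rf_3 hy) 5 rfl) h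
theorem dp_q_1_s (hy : Hy g H)
    (j u : ℕ) (hu : u < M) (h : dp_q_1 j u = true) : Gd g H Lt.q u := by
  unfold dp_q_1 at h
  rcases brec_true h with h | h
  · exact lH_good (T := T) (x := Lt.q) hM0 [] [] (by rw [show cP g H 0 = _ from cc_zero]; exact sub_rel hy.1 (hy.2.2 _ (by decide))) h
  · exact lS_good (T := T) (x := Lt.q) hM0 hu [Lt.p, Lt.qi, Lt.qi, Lt.s, Lt.q, Lt.s, Lt.qi, Lt.si, Lt.p, Lt.p] (hat (rf_13 hy) 8 rfl) h
theorem dp_q_2_s (hy : Hy g H)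
    (j u : ℕ) (hu : u < M) (h : dp_q_2 j u = true) : Gd g H Lt.q u := by
  unfold dp_q_2 at h
  rcases brec_true h with h | h
  · exact lS_good (T := T) (x := Lt.q) hM0 hu [Lt.d, Lt.qi, Lt.s, Lt.qi, Lt.d, Lt.q, Lt.si] (hat (rf_5 hy) 3 rfl) h
  · exact lS_good (T := T) (x := Lt.q) hM0 hu [Lt.r, Lt.qi, Lt.ri, Lt.ri, Lt.q, Lt.ri, Lt.p, Lt.p, Lt.qi, Lt.p] (hat (rf_12 hy) 0 rfl) h
theorem dp_q_3_s (hy : Hy g H)
    (j u : ℕ) (hu : u < M) (h : dp_q_3 j u = true) : Gd g H Lt.q u := by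
  unfold dp_q_3 at h
  rcases brec_true h with h | h
  · exact dp_q_1_s hy j u hu h
  · exact dp_q_2_s hy j u hu h
theorem dp_q_4_s (hy : Hy g H)
    (j u : ℕ) (hu : u < M) (h : dp_q_4 j u = true) : Gd g H Lt.q u := by
  unfold dp_q_4 at h
  rcases brec_true h with h | h
  · exact lS_good (T := T) (x := Lt.q) hM0 hu [Lt.q, Lt.d, Lt.si, Lt.si, Lt.d] (hat (rf_3 hy) 5 rfl) h
  · exact lF_good (T := T) (x := Lt.q) hM0 [Lt.si, Lt.q, Lt.d, Lt.qi, Lt.s, Lt.qi, Lt.d] (hat (rf_5 hy) 1 rfl) h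
theorem dp_q_5_s (hy : Hy g H)
    (j u : ℕ) (hu : u < M) (h : dp_q_5 j u = true) : Gd g H Lt.q u := by
  unfold dp_q_5 at h
  rcases brec_true h with h | h
  · exact lS_good (T := T) (x := Lt.q) hM0 hu [Lt.s, Lt.d, Lt.si, Lt.qi, Lt.s, Lt.q, Lt.d, Lt.qi, Lt.si] (hat (rf_7 hy) 8 rfl) h
  · exact lF_good (T := T) (x := Lt.q) hM0 [Lt.d, Lt.si, Lt.si, Lt.d, Lt.q] (hat (rf_3 hy) 0 rfl) h
theorem dp_q_6_s (hy : Hy g H)
    (j u : ℕ) (hu : u < M) (h : dp_q_6 j u = true) : Gd g H Lt.q u := by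
  unfold dp_q_6 at h
  rcases brec_true h with h | h
  · exact lS_good (T := T) (x := Lt.q) hM0 hu [Lt.si, Lt.q, Lt.d, Lt.qi, Lt.s, Lt.qi, Lt.d] (hat (rf_5 hy) 1 rfl) h
  · exact dp_q_5_s hy j u hu h
theorem dp_q_7_s (hy : Hy g H)
    (j u : ℕ) (hu : u < M) (h : dp_q_7 j u = true) : Gd g H Lt.q u := by
  unfold dp_q_7 at h
  rcases brec_true h with h | h
  · exact dp_q_4_s hy j u hu h
  · exact dp_q_6_s hy j u hu h
theorem dp_q_8_s (hy : Hy g H)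
    (j u : ℕ) (hu : u < M) (h : dp_q_8 j u = true) : Gd g H Lt.q u := by
  unfold dp_q_8 at h
  rcases brec_true h with h | h
  · exact dp_q_3_s hy j u hu h
  · exact dp_q_7_s hy j u hu h
theorem dp_q_9_s (hy : Hy g H)
    (j u : ℕ) (hu : u < M) (h : dp_q_9 j u = true) : Gd g H Lt.q u := by
  unfold dp_q_9 at h
  rcases brec_true h with h | h
  · exact dp_q_0_s hy j u hu h
  · exact dp_q_8_s hy j u hu h
theorem dp_q_10_s (hy : Hy g H)
    (j u : ℕ) (hu : u < M) (h : dp_q_10 j u = true) : Gd g H Lt.q u := by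
  unfold dp_q_10 at h
  rcases brec_true h with h | h
  · exact lF1_good (T := T) (x := Lt.q) hM0 .qi (hat (rf_17 hy) 1 rfl) h
  · exact dp_q_9_s hy j u hu h
theorem snd_q (hy : Hy g H)
    (j u : ℕ) (hu : u < M) (h : disp_q j u = true) : Gd g H Lt.q u := by
  unfold disp_q at h
  rcases brec_true h with h | h
  · rcases brec_true h with h | h
    · exact lDef_good (T := T) (x := Lt.q) (by decide) rfl h
    · exact lPar_good (T := T) (x := Lt.q) (x' := Lt.qi) (by decide) rfl (ivt hy _ _ rfl) h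
  · exact dp_q_10_s hy j u hu h
theorem snc_q (hy : Hy g H)
    (j u : ℕ) (hu : u < M) (h : chk_q j u = true) : (T Lt.q u < A ∧ Gd g H Lt.q u) ∨ (A ≤ T Lt.q u ∧ MG u < A) := by
  unfold chk_q at h
  cases hb : Nat.ble A (T_q u) with
  | true => rw [hb] at h; exact Or.inr ⟨le_of_ble hb, le_of_ble h⟩
  | false => rw [hb] at h; exact Or.inl ⟨lt_of_ble_false hb, snd_q hy j u hu h⟩
theorem dp_qi_0_s (hy : Hy g H)
    (j u : ℕ) (hu : u < M) (h : dp_qi_0 j u = true) : Gd g H Lt.qi u := by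
  unfold dp_qi_0 at h
  rcases brec_true h with h | h
  · exact lS_good (T := T) (x := Lt.qi) hM0 hu [Lt.d, Lt.s, Lt.r, Lt.si, Lt.d, Lt.q, Lt.pi] (hat (rb_4 hy) 3 rfl) h
  · exact lF_good (T := T) (x := Lt.qi) hM0 [Lt.d, Lt.s, Lt.d, Lt.pi, Lt.pi, Lt.pi, Lt.pi] (hat (rb_6 hy) 5 rfl) h
theorem dp_qi_1_s (hy : Hy g H)
    (j u : ℕ) (hu : u < M) (h : dp_qi_1 j u = true) : Gd g H Lt.qi u := by
  unfold dp_qi_1 at h
  rcases brec_true h with h | h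
  · exact lF_good (T := T) (x := Lt.qi) hM0 [Lt.qi, Lt.d, Lt.s, Lt.s, Lt.d] (hat (rb_3 hy) 1 rfl) h
  · exact dp_qi_0_s hy j u hu h
theorem dp_qi_2_s (hy : Hy g H)
    (j u : ℕ) (hu : u < M) (h : dp_qi_2 j u = true) : Gd g H Lt.qi u := by
  unfold dp_qi_2 at h
  rcases brec_true h with h | h
  · exact lS_good (T := T) (x := Lt.qi) hM0 hu [Lt.qi, Lt.d, Lt.s, Lt.s, Lt.d] (hat (rb_3 hy) 1 rfl) h
  · exact lS_good (T := T) (x := Lt.qi) hM0 hu [Lt.d, Lt.s, Lt.ri, Lt.si, Lt.d, Lt.q, Lt.p] (hat (rf_4 hy) 0 rfl) h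
theorem dp_qi_3_s (hy : Hy g H)
    (j u : ℕ) (hu : u < M) (h : dp_qi_3 j u = true) : Gd g H Lt.qi u := by
  unfold dp_qi_3 at h
  rcases brec_true h with h | h
  · exact lS_good (T := T) (x := Lt.qi) hM0 hu [Lt.s, Lt.qi, Lt.d, Lt.q, Lt.si, Lt.q, Lt.d] (hat (rf_5 hy) 5 rfl) h
  · exact dp_qi_2_s hy j u hu h
theorem dp_qi_4_s (hy : Hy g H)
    (j u : ℕ) (hu : u < M) (h : dp_qi_4 j u = true) : Gd g H Lt.qi u := by
  unfold dp_qi_4 at h
  rcases brec_true h with h | h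
  · exact lS_good (T := T) (x := Lt.qi) hM0 hu [Lt.pi, Lt.q, Lt.pi, Lt.pi, Lt.r, Lt.qi, Lt.r, Lt.r, Lt.q, Lt.ri] (hat (rb_12 hy) 1 rfl) h
  · exact lS_good (T := T) (x := Lt.qi) hM0 hu [Lt.si, Lt.q, Lt.s, Lt.d, Lt.si, Lt.qi, Lt.s, Lt.q, Lt.d] (hat (rf_7 hy) 6 rfl) h
theorem dp_qi_5_s (hy : Hy g H)
    (j u : ℕ) (hu : u < M) (h : dp_qi_5 j u = true) : Gd g H Lt.qi u := by
  unfold dp_qi_5 at h
  rcases brec_true h with h | h
  · exact lS_good (T := T) (x := Lt.qi) hM0 hu [Lt.s, Lt.q, Lt.d, Lt.qi, Lt.si, Lt.q, Lt.s, Lt.d, Lt.si] (hat (rf_7 hy) 2 rfl) h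
  · exact lS_good (T := T) (x := Lt.qi) hM0 hu [Lt.d, Lt.s, Lt.s, Lt.d, Lt.qi] (hat (rb_3 hy) 2 rfl) h
theorem dp_qi_6_s (hy : Hy g H)
    (j u : ℕ) (hu : u < M) (h : dp_qi_6 j u = true) : Gd g H Lt.qi u := by
  unfold dp_qi_6 at h
  rcases brec_true h with h | h
  · exact lF_good (T := T) (x := Lt.qi) hM0 [Lt.s, Lt.qi, Lt.d, Lt.q, Lt.si, Lt.q, Lt.d] (hat (rf_5 hy) 5 rfl) h
  · exact dp_qi_5_s hy j u hu h
theorem dp_qi_7_s (hy : Hy g H)
    (j u : ℕ) (hu : u < M) (h : dp_qi_7 j u = true) : Gd g H Lt.qi u := by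
  unfold dp_qi_7 at h
  rcases brec_true h with h | h
  · exact dp_qi_4_s hy j u hu h
  · exact dp_qi_6_s hy j u hu h
theorem dp_qi_8_s (hy : Hy g H)
    (j u : ℕ) (hu : u < M) (h : dp_qi_8 j u = true) : Gd g H Lt.qi u := by
  unfold dp_qi_8 at h
  rcases brec_true h with h | h
  · exact dp_qi_3_s hy j u hu h
  · exact dp_qi_7_s hy j u hu h
theorem dp_qi_9_s (hy : Hy g H)
    (j u : ℕ) (hu : u < M) (h : dp_qi_9 j u = true) : Gd g H Lt.qi u := by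
  unfold dp_qi_9 at h
  rcases brec_true h with h | h
  · exact dp_qi_1_s hy j u hu h
  · exact dp_qi_8_s hy j u hu h
theorem dp_qi_10_s (hy : Hy g H)
    (j u : ℕ) (hu : u < M) (h : dp_qi_10 j u = true) : Gd g H Lt.qi u := by
  unfold dp_qi_10 at h
  rcases brec_true h with h | h
  · rcases brec_true h with h | h
    · exact lS_good (T := T) (x := Lt.qi) hM0 hu [Lt.q] (hat (rf_17 hy) 0 rfl) h
    · exact lF1_good (T := T) (x := Lt.qi) hM0 .q (hat (rf_17 hy) 0 rfl) h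
  · exact dp_qi_9_s hy j u hu h
theorem snd_qi (hy : Hy g H)
    (j u : ℕ) (hu : u < M) (h : disp_qi j u = true) : Gd g H Lt.qi u := by
  unfold disp_qi at h
  rcases brec_true h with h | h
  · rcases brec_true h with h | h
    · exact lPar_good (T := T) (x := Lt.qi) (x' := Lt.q) (by decide) rfl (ivt hy _ _ rfl) h
    · exact lDef_good (T := T) (x := Lt.qi) (by decide) rfl h
  · exact dp_qi_10_s hy j u hu h
theorem snc_qi (hy : Hy g H)
    (j u : ℕ) (hu : u < M) (h : chk_qi j u = true) : (T Lt.qi u < A ∧ Gd g H Lt.qi u) ∨ (A ≤ T Lt.qi u ∧ MG u < A) := by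
  unfold chk_qi at h
  cases hb : Nat.ble A (T_qi u) with
  | true => rw [hb] at h; exact Or.inr ⟨le_of_ble hb, le_of_ble h⟩
  | false => rw [hb] at h; exact Or.inl ⟨lt_of_ble_false hb, snd_qi hy j u hu h⟩
theorem dp_r_0_s (hy : Hy g H)
    (j u : ℕ) (hu : u < M) (h : dp_r_0 j u = true) : Gd g H Lt.r u := by
  unfold dp_r_0 at h
  rcases brec_true h with h | h
  · exact lS_good (T := T) (x := Lt.r) hM0 hu [Lt.d, Lt.pi, Lt.pi, Lt.d, Lt.r] (hat (rb_2 hy) 5 rfl) h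
  · exact lF_good (T := T) (x := Lt.r) hM0 [Lt.si, Lt.d, Lt.q, Lt.pi, Lt.qi, Lt.d, Lt.s] (hat (rb_4 hy) 6 rfl) h
theorem dp_r_1_s (hy : Hy g H)
    (j u : ℕ) (hu : u < M) (h : dp_r_1 j u = true) : Gd g H Lt.r u := by
  unfold dp_r_1 at h
  rcases brec_true h with h | h
  · exact lF_good (T := T) (x := Lt.r) hM0 [Lt.d, Lt.pi, Lt.pi, Lt.d, Lt.r] (hat (rb_2 hy) 5 rfl) h
  · exact lS_good (T := T) (x := Lt.r) hM0 hu [Lt.si, Lt.d, Lt.q, Lt.pi, Lt.qi, Lt.d, Lt.s] (hat (rb_4 hy) 6 rfl) h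
theorem dp_r_2_s (hy : Hy g H)
    (j u : ℕ) (hu : u < M) (h : dp_r_2 j u = true) : Gd g H Lt.r u := by
  unfold dp_r_2 at h
  rcases brec_true h with h | h
  · exact lS_good (T := T) (x := Lt.r) hM0 hu [Lt.r, Lt.d, Lt.pi, Lt.pi, Lt.d] (hat (rb_2 hy) 4 rfl) h
  · exact dp_r_1_s hy j u hu h
theorem dp_r_3_s (hy : Hy g H)
    (j u : ℕ) (hu : u < M) (h : dp_r_3 j u = true) : Gd g H Lt.r u := by
  unfold dp_r_3 at h
  rcases brec_true h with h | h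
  · exact dp_r_0_s hy j u hu h
  · exact dp_r_2_s hy j u hu h
theorem snd_r (hy : Hy g H)
    (j u : ℕ) (hu : u < M) (h : disp_r j u = true) : Gd g H Lt.r u := by
  unfold disp_r at h
  rcases brec_true h with h | h
  · exact lDef_good (T := T) (x := Lt.r) (by decide) rfl h
  · rcases brec_true h with h | h
    · exact lPar_good (T := T) (x := Lt.r) (x' := Lt.ri) (by decide) rfl (ivt hy _ _ rfl) h
    · rcases brec_true h with h | h
      · exact lS_good (T := T) (x := Lt.r) hM0 hu [Lt.ri] (hat (rf_19 hy) 1 rfl) h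
      · rcases brec_true h with h | h
        · exact lF1_good (T := T) (x := Lt.r) hM0 .ri (hat (rf_19 hy) 1 rfl) h
        · exact dp_r_3_s hy j u hu h
theorem snc_r (hy : Hy g H)
    (j u : ℕ) (hu : u < M) (h : chk_r j u = true) : (T Lt.r u < A ∧ Gd g H Lt.r u) ∨ (A ≤ T Lt.r u ∧ MG u < A) := by
  unfold chk_r at h
  cases hb : Nat.ble A (T_r u) with
  | true => rw [hb] at h; exact Or.inr ⟨le_of_ble hb, le_of_ble h⟩
  | false => rw [hb] at h; exact Or.inl ⟨lt_of_ble_false hb, snd_r hy j u hu h⟩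
theorem dp_ri_0_s (hy : Hy g H)
    (j u : ℕ) (hu : u < M) (h : dp_ri_0 j u = true) : Gd g H Lt.ri u := by
  unfold dp_ri_0 at h
  rcases brec_true h with h | h
  · exact lS_good (T := T) (x := Lt.ri) hM0 hu [Lt.si, Lt.d, Lt.q, Lt.p, Lt.qi, Lt.d, Lt.s] (hat (rf_4 hy) 3 rfl) h
  · exact lF_good (T := T) (x := Lt.ri) hM0 [Lt.ri, Lt.q, Lt.ri, Lt.p, Lt.p, Lt.qi, Lt.p, Lt.q, Lt.r, Lt.qi] (hat (rf_12 hy) 3 rfl) h
theorem dp_ri_1_s (hy : Hy g H)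
    (j u : ℕ) (hu : u < M) (h : dp_ri_1 j u = true) : Gd g H Lt.ri u := by
  unfold dp_ri_1 at h
  rcases brec_true h with h | h
  · exact lS_good (T := T) (x := Lt.ri) hM0 hu [Lt.d, Lt.p, Lt.p, Lt.d, Lt.ri] (hat (rf_2 hy) 3 rfl) h
  · exact dp_ri_0_s hy j u hu h
theorem dp_ri_2_s (hy : Hy g H)
    (j u : ℕ) (hu : u < M) (h : dp_ri_2 j u = true) : Gd g H Lt.ri u := by
  unfold dp_ri_2 at h
  rcases brec_true h with h | h
  · exact lS_good (T := T) (x := Lt.ri) hM0 hu [Lt.ri, Lt.d, Lt.p, Lt.p, Lt.d] (hat (rf_2 hy) 2 rfl) h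
  · exact lF_good (T := T) (x := Lt.ri) hM0 [Lt.d, Lt.p, Lt.p, Lt.d, Lt.ri] (hat (rf_2 hy) 3 rfl) h
theorem dp_ri_3_s (hy : Hy g H)
    (j u : ℕ) (hu : u < M) (h : dp_ri_3 j u = true) : Gd g H Lt.ri u := by
  unfold dp_ri_3 at h
  rcases brec_true h with h | h
  · exact lF_good (T := T) (x := Lt.ri) hM0 [Lt.ri, Lt.pi, Lt.r, Lt.pi, Lt.qi, Lt.p, Lt.p, Lt.q, Lt.ri, Lt.p] (hat (rf_11 hy) 3 rfl) h
  · exact dp_ri_2_s hy j u hu h
theorem dp_ri_4_s (hy : Hy g H)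
    (j u : ℕ) (hu : u < M) (h : dp_ri_4 j u = true) : Gd g H Lt.ri u := by
  unfold dp_ri_4 at h
  rcases brec_true h with h | h
  · exact lS_good (T := T) (x := Lt.ri) hM0 hu [Lt.pi, Lt.r, Lt.r, Lt.p, Lt.p, Lt.r, Lt.pi, Lt.pi, Lt.ri] (hat (rf_8 hy) 4 rfl) h
  · exact lS_good (T := T) (x := Lt.ri) hM0 hu [Lt.qi, Lt.pi, Lt.q, Lt.pi, Lt.pi, Lt.r, Lt.qi, Lt.r, Lt.r, Lt.q] (hat (rb_12 hy) 0 rfl) h
theorem dp_ri_5_s (hy : Hy g H)
    (j u : ℕ) (hu : u < M) (h : dp_ri_5 j u = true) : Gd g H Lt.ri u := by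
  unfold dp_ri_5 at h
  rcases brec_true h with h | h
  · exact lF_good (T := T) (x := Lt.ri) hM0 [Lt.ri, Lt.d, Lt.p, Lt.p, Lt.d] (hat (rf_2 hy) 2 rfl) h
  · exact dp_ri_4_s hy j u hu h
theorem dp_ri_6_s (hy : Hy g H)
    (j u : ℕ) (hu : u < M) (h : dp_ri_6 j u = true) : Gd g H Lt.ri u := by
  unfold dp_ri_6 at h
  rcases brec_true h with h | h
  · exact dp_ri_3_s hy j u hu h
  · exact dp_ri_5_s hy j u hu h
theorem dp_ri_7_s (hy : Hy g H)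
    (j u : ℕ) (hu : u < M) (h : dp_ri_7 j u = true) : Gd g H Lt.ri u := by
  unfold dp_ri_7 at h
  rcases brec_true h with h | h
  · exact dp_ri_1_s hy j u hu h
  · exact dp_ri_6_s hy j u hu h
theorem dp_ri_8_s (hy : Hy g H)
    (j u : ℕ) (hu : u < M) (h : dp_ri_8 j u = true) : Gd g H Lt.ri u := by
  unfold dp_ri_8 at h
  rcases brec_true h with h | h
  · rcases brec_true h with h | h
    · exact lS_good (T := T) (x := Lt.ri) hM0 hu [Lt.r] (hat (rf_19 hy) 0 rfl) h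
    · exact lF1_good (T := T) (x := Lt.ri) hM0 .r (hat (rf_19 hy) 0 rfl) h
  · exact dp_ri_7_s hy j u hu h
theorem snd_ri (hy : Hy g H)
    (j u : ℕ) (hu : u < M) (h : disp_ri j u = true) : Gd g H Lt.ri u := by
  unfold disp_ri at h
  rcases brec_true h with h | h
  · exact lPar_good (T := T) (x := Lt.ri) (x' := Lt.r) (by decide) rfl (ivt hy _ _ rfl) h
  · rcases brec_true h with h | h
    · exact lDef_good (T := T) (x := Lt.ri) (by decide) rfl h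
    · exact dp_ri_8_s hy j u hu h
theorem snc_ri (hy : Hy g H)
    (j u : ℕ) (hu : u < M) (h : chk_ri j u = true) : (T Lt.ri u < A ∧ Gd g H Lt.ri u) ∨ (A ≤ T Lt.ri u ∧ MG u < A) := by
  unfold chk_ri at h
  cases hb : Nat.ble A (T_ri u) with
  | true => rw [hb] at h; exact Or.inr ⟨le_of_ble hb, le_of_ble h⟩
  | false => rw [hb] at h; exact Or.inl ⟨lt_of_ble_false hb, snd_ri hy j u hu h⟩
theorem dp_s_0_s (hy : Hy g H)
    (j u : ℕ) (hu : u < M) (h : dp_s_0 j u = true) : Gd g H Lt.s u := by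
  unfold dp_s_0 at h
  rcases brec_true h with h | h
  · exact lS_good (T := T) (x := Lt.s) hM0 hu [Lt.qi, Lt.d, Lt.q, Lt.si, Lt.q, Lt.d, Lt.qi] (hat (rf_5 hy) 6 rfl) h
  · exact lF_good (T := T) (x := Lt.s) hM0 [Lt.s, Lt.s, Lt.s, Lt.s] (hat (rf_1 hy) 0 rfl) h
theorem dp_s_1_s (hy : Hy g H)
    (j u : ℕ) (hu : u < M) (h : dp_s_1 j u = true) : Gd g H Lt.s u := by
  unfold dp_s_1 at h
  rcases brec_true h with h | h
  · exact lS_good (T := T) (x := Lt.s) hM0 hu [Lt.s, Lt.s, Lt.s, Lt.s] (hat (rf_1 hy) 0 rfl) h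
  · exact dp_s_0_s hy j u hu h
theorem dp_s_2_s (hy : Hy g H)
    (j u : ℕ) (hu : u < M) (h : dp_s_2 j u = true) : Gd g H Lt.s u := by
  unfold dp_s_2 at h
  rcases brec_true h with h | h
  · exact lF_good (T := T) (x := Lt.s) hM0 [Lt.qi, Lt.si, Lt.p, Lt.p, Lt.q, Lt.p, Lt.qi, Lt.qi, Lt.s, Lt.q] (hat (rf_13 hy) 3 rfl) h
  · exact lF_good (T := T) (x := Lt.s) hM0 [Lt.d, Lt.pi, Lt.pi, Lt.pi, Lt.pi, Lt.qi, Lt.d] (hat (rb_6 hy) 7 rfl) h
theorem dp_s_3_s (hy : Hy g H)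
    (j u : ℕ) (hu : u < M) (h : dp_s_3 j u = true) : Gd g H Lt.s u := by
  unfold dp_s_3 at h
  rcases brec_true h with h | h
  · exact lF_good (T := T) (x := Lt.s) hM0 [Lt.d, Lt.qi, Lt.qi, Lt.d, Lt.s] (hat (rb_3 hy) 5 rfl) h
  · exact dp_s_2_s hy j u hu h
theorem dp_s_4_s (hy : Hy g H)
    (j u : ℕ) (hu : u < M) (h : dp_s_4 j u = true) : Gd g H Lt.s u := by
  unfold dp_s_4 at h
  rcases brec_true h with h | h
  · exact lS_good (T := T) (x := Lt.s) hM0 hu [Lt.s, Lt.d, Lt.qi, Lt.qi, Lt.d] (hat (rb_3 hy) 4 rfl) h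
  · exact lF_good (T := T) (x := Lt.s) hM0 [Lt.s, Lt.d, Lt.qi, Lt.qi, Lt.d] (hat (rb_3 hy) 4 rfl) h
theorem dp_s_5_s (hy : Hy g H)
    (j u : ℕ) (hu : u < M) (h : dp_s_5 j u = true) : Gd g H Lt.s u := by
  unfold dp_s_5 at h
  rcases brec_true h with h | h
  · exact lS_good (T := T) (x := Lt.s) hM0 hu [Lt.d, Lt.qi, Lt.qi, Lt.d, Lt.s] (hat (rb_3 hy) 5 rfl) h
  · exact lS_good (T := T) (x := Lt.s) hM0 hu [Lt.d, Lt.pi, Lt.pi, Lt.pi, Lt.pi, Lt.qi, Lt.d] (hat (rb_6 hy) 7 rfl) h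
theorem dp_s_6_s (hy : Hy g H)
    (j u : ℕ) (hu : u < M) (h : dp_s_6 j u = true) : Gd g H Lt.s u := by
  unfold dp_s_6 at h
  rcases brec_true h with h | h
  · exact dp_s_4_s hy j u hu h
  · exact dp_s_5_s hy j u hu h
theorem dp_s_7_s (hy : Hy g H)
    (j u : ℕ) (hu : u < M) (h : dp_s_7 j u = true) : Gd g H Lt.s u := by
  unfold dp_s_7 at h
  rcases brec_true h with h | h
  · exact dp_s_3_s hy j u hu h
  · exact dp_s_6_s hy j u hu h
theorem dp_s_8_s (hy : Hy g H)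
    (j u : ℕ) (hu : u < M) (h : dp_s_8 j u = true) : Gd g H Lt.s u := by
  unfold dp_s_8 at h
  rcases brec_true h with h | h
  · exact dp_s_1_s hy j u hu h
  · exact dp_s_7_s hy j u hu h
theorem dp_s_9_s (hy : Hy g H)
    (j u : ℕ) (hu : u < M) (h : dp_s_9 j u = true) : Gd g H Lt.s u := by
  unfold dp_s_9 at h
  rcases brec_true h with h | h
  · rcases brec_true h with h | h
    · exact lF1_good (T := T) (x := Lt.s) hM0 .si (hat (rf_21 hy) 1 rfl) h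
    · exact lS_good (T := T) (x := Lt.s) hM0 hu [Lt.si] (hat (rf_21 hy) 1 rfl) h
  · exact dp_s_8_s hy j u hu h
theorem snd_s (hy : Hy g H)
    (j u : ℕ) (hu : u < M) (h : disp_s j u = true) : Gd g H Lt.s u := by
  unfold disp_s at h
  rcases brec_true h with h | h
  · rcases brec_true h with h | h
    · exact lPar_good (T := T) (x := Lt.s) (x' := Lt.si) (by decide) rfl (ivt hy _ _ rfl) h
    · exact lDef_good (T := T) (x := Lt.s) (by decide) rfl h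
  · exact dp_s_9_s hy j u hu h
theorem snc_s (hy : Hy g H)
    (j u : ℕ) (hu : u < M) (h : chk_s j u = true) : (T Lt.s u < A ∧ Gd g H Lt.s u) ∨ (A ≤ T Lt.s u ∧ MG u < A) := by
  unfold chk_s at h
  cases hb : Nat.ble A (T_s u) with
  | true => rw [hb] at h; exact Or.inr ⟨le_of_ble hb, le_of_ble h⟩
  | false => rw [hb] at h; exact Or.inl ⟨lt_of_ble_false hb, snd_s hy j u hu h⟩
theorem dp_si_0_s (hy : Hy g H)
    (j u : ℕ) (hu : u < M) (h : dp_si_0 j u = true) : Gd g H Lt.si u := by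
  unfold dp_si_0 at h
  rcases brec_true h with h | h
  · exact lF_good (T := T) (x := Lt.si) hM0 [Lt.d, Lt.q, Lt.p, Lt.p, Lt.p, Lt.p, Lt.d] (hat (rf_6 hy) 2 rfl) h
  · exact lF_good (T := T) (x := Lt.si) hM0 [Lt.si, Lt.d, Lt.q, Lt.q, Lt.d] (hat (rf_3 hy) 2 rfl) h
theorem dp_si_1_s (hy : Hy g H)
    (j u : ℕ) (hu : u < M) (h : dp_si_1 j u = true) : Gd g H Lt.si u := by
  unfold dp_si_1 at h
  rcases brec_true h with h | h
  · exact lS_good (T := T) (x := Lt.si) hM0 hu [Lt.si, Lt.si, Lt.si, Lt.si] (hat (rb_1 hy) 0 rfl) h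
  · exact lS_good (T := T) (x := Lt.si) hM0 hu [Lt.d, Lt.q, Lt.p, Lt.qi, Lt.d, Lt.s, Lt.ri] (hat (rf_4 hy) 4 rfl) h
theorem dp_si_2_s (hy : Hy g H)
    (j u : ℕ) (hu : u < M) (h : dp_si_2 j u = true) : Gd g H Lt.si u := by
  unfold dp_si_2 at h
  rcases brec_true h with h | h
  · exact lS_good (T := T) (x := Lt.si) hM0 hu [Lt.q, Lt.d, Lt.qi, Lt.s, Lt.qi, Lt.d, Lt.q] (hat (rf_5 hy) 2 rfl) h
  · exact lS_good (T := T) (x := Lt.si) hM0 hu [Lt.d, Lt.q, Lt.q, Lt.d, Lt.si] (hat (rf_3 hy) 3 rfl) h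
theorem dp_si_3_s (hy : Hy g H)
    (j u : ℕ) (hu : u < M) (h : dp_si_3 j u = true) : Gd g H Lt.si u := by
  unfold dp_si_3 at h
  rcases brec_true h with h | h
  · exact lF_good (T := T) (x := Lt.si) hM0 [Lt.si, Lt.si, Lt.si, Lt.si] (hat (rb_1 hy) 0 rfl) h
  · exact lS_good (T := T) (x := Lt.si) hM0 hu [Lt.d, Lt.q, Lt.p, Lt.p, Lt.p, Lt.p, Lt.d] (hat (rf_6 hy) 2 rfl) h
theorem dp_si_4_s (hy : Hy g H)
    (j u : ℕ) (hu : u < M) (h : dp_si_4 j u = true) : Gd g H Lt.si u := by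
  unfold dp_si_4 at h
  rcases brec_true h with h | h
  · exact dp_si_2_s hy j u hu h
  · exact dp_si_3_s hy j u hu h
theorem dp_si_5_s (hy : Hy g H)
    (j u : ℕ) (hu : u < M) (h : dp_si_5 j u = true) : Gd g H Lt.si u := by
  unfold dp_si_5 at h
  rcases brec_true h with h | h
  · exact dp_si_1_s hy j u hu h
  · exact dp_si_4_s hy j u hu h
theorem dp_si_6_s (hy : Hy g H)
    (j u : ℕ) (hu : u < M) (h : dp_si_6 j u = true) : Gd g H Lt.si u := by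
  unfold dp_si_6 at h
  rcases brec_true h with h | h
  · rcases brec_true h with h | h
    · exact lF1_good (T := T) (x := Lt.si) hM0 .s (hat (rf_21 hy) 0 rfl) h
    · exact lS_good (T := T) (x := Lt.si) hM0 hu [Lt.s] (hat (rf_21 hy) 0 rfl) h
  · rcases brec_true h with h | h
    · exact dp_si_0_s hy j u hu h
    · exact dp_si_5_s hy j u hu h
theorem snd_si (hy : Hy g H)
    (j u : ℕ) (hu : u < M) (h : disp_si j u = true) : Gd g H Lt.si u := by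
  unfold disp_si at h
  rcases brec_true h with h | h
  · rcases brec_true h with h | h
    · exact lDef_good (T := T) (x := Lt.si) (by decide) rfl h
    · exact lPar_good (T := T) (x := Lt.si) (x' := Lt.s) (by decide) rfl (ivt hy _ _ rfl) h
  · exact dp_si_6_s hy j u hu h
theorem snc_si (hy : Hy g H)
    (j u : ℕ) (hu : u < M) (h : chk_si j u = true) : (T Lt.si u < A ∧ Gd g H Lt.si u) ∨ (A ≤ T Lt.si u ∧ MG u < A) := by
  unfold chk_si at h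
  cases hb : Nat.ble A (T_si u) with
  | true => rw [hb] at h; exact Or.inr ⟨le_of_ble hb, le_of_ble h⟩
  | false => rw [hb] at h; exact Or.inl ⟨lt_of_ble_false hb, snd_si hy j u hu h⟩
theorem snd_d (hy : Hy g H)
    (j u : ℕ) (hu : u < M) (h : disp_d j u = true) : Gd g H Lt.d u := by
  unfold disp_d at h
  rcases brec_true h with h | h
  · exact lDef_good (T := T) (x := Lt.d) (by decide) rfl h
  · exact lPar_good (T := T) (x := Lt.d) (x' := Lt.d) (by decide) rfl (ivt hy _ _ rfl) h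
theorem snc_d (hy : Hy g H)
    (j u : ℕ) (hu : u < M) (h : chk_d j u = true) : (T Lt.d u < A ∧ Gd g H Lt.d u) ∨ (A ≤ T Lt.d u ∧ MG u < A) := by
  unfold chk_d at h
  cases hb : Nat.ble A (T_d u) with
  | true => rw [hb] at h; exact Or.inr ⟨le_of_ble hb, le_of_ble h⟩
  | false => rw [hb] at h; exact Or.inl ⟨lt_of_ble_false hb, snd_d hy j u hu h⟩
theorem dM_0_s (hy : Hy g H) (j z1 z2 u : ℕ) (h : dM_0 j z1 z2 u = true) : GdM g H u := by
  unfold dM_0 at h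
  rcases brec_true h with h | h
  · rcases brec_true h with h | h
    · exact mCo_good (T := T) (y := .d) hM0 h
    · rcases brec_true h with h | h
      · exact mCo_good (T := T) (y := .p) hM0 h
      · exact mCo_good (T := T) (y := .q) hM0 h
  · rcases brec_true h with h | h
    · exact mCo_good (T := T) (y := .r) hM0 h
    · rcases brec_true h with h | h
      · exact mCo_good (T := T) (y := .s) hM0 h
      · exact mCo_good (T := T) (y := .qi) hM0 h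
theorem dM_1_s (hy : Hy g H) (j z1 z2 u : ℕ) (h : dM_1 j z1 z2 u = true) : GdM g H u := by
  unfold dM_1 at h
  rcases brec_true h with h | h
  · rcases brec_true h with h | h
    · exact mCo_good (T := T) (y := .pi) hM0 h
    · exact mCo_good (T := T) (y := .ri) hM0 h
  · rcases brec_true h with h | h
    · exact mCo_good (T := T) (y := .si) hM0 h
    · rcases brec_true h with h | h
      · rcases brec_true h with h | h
        · exact mRel_good (T := T) hM0 [Lt.r, Lt.r] [Lt.d, Lt.p, Lt.p, Lt.d] (pat hy (rb_2 hy) 3 rfl) h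
        · exact mRel_good (T := T) hM0 [Lt.s, Lt.s] [Lt.d, Lt.q, Lt.q, Lt.d] (pat hy (rb_3 hy) 3 rfl) h
      · rcases brec_true h with h | h
        · rcases brec_true h with h | h
          · exact mRel_good (T := T) hM0 [Lt.p, Lt.p] [Lt.d, Lt.r, Lt.r, Lt.d] (pat hy (rf_2 hy) 4 rfl) h
          · rcases brec_true h with h | h
            · exact mRel_good (T := T) hM0 [Lt.pi, Lt.pi, Lt.ri] [Lt.r, Lt.pi, Lt.pi, Lt.ri, Lt.ri, Lt.pi, Lt.r] (pat hy (rb_8 hy) 1 rfl) h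
            · exact mRel_good (T := T) hM0 [Lt.qi, Lt.qi, Lt.d, Lt.s, Lt.s, Lt.d] [] (pat hy (rb_3 hy) 0 rfl) h
        · rcases brec_true h with h | h
          · rcases brec_true h with h | h
            · exact mRel_good (T := T) hM0 [Lt.p] [Lt.pi, Lt.pi, Lt.pi, Lt.qi, Lt.d, Lt.s, Lt.d] (pat hy (rf_6 hy) 7 rfl) h
            · exact mRel_good (T := T) hM0 [Lt.q, Lt.q] [Lt.d, Lt.s, Lt.s, Lt.d] (pat hy (rf_3 hy) 4 rfl) h
          · rcases brec_true h with h | h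
            · exact mRel_good (T := T) hM0 [Lt.pi, Lt.pi, Lt.pi, Lt.qi] [Lt.p, Lt.d, Lt.si, Lt.d] (pat hy (rb_6 hy) 1 rfl) h
            · exact mRel_good (T := T) hM0 [Lt.ri, Lt.pi, Lt.r, Lt.r, Lt.p, Lt.p, Lt.r, Lt.pi, Lt.pi] [Lt.r] (pat hy (rf_8 hy) 3 rfl) h
theorem dM_2_s (hy : Hy g H) (j z1 z2 u : ℕ) (h : dM_2 j z1 z2 u = true) : GdM g H u := by
  unfold dM_2 at h
  rcases brec_true h with h | h
  · rcases brec_true h with h | h
    · exact mRel_good (T := T) hM0 [Lt.r, Lt.p, Lt.p, Lt.r] [Lt.ri, Lt.p, Lt.r, Lt.r, Lt.p, Lt.p] (pat hy (rf_8 hy) 6 rfl) h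
    · rcases brec_true h with h | h
      · exact mRel_good (T := T) hM0 [Lt.p, Lt.ri, Lt.pi, Lt.pi, Lt.ri] [Lt.pi, Lt.ri, Lt.ri, Lt.pi, Lt.r] (pat hy (rb_8 hy) 9 rfl) h
      · exact mRel_good (T := T) hM0 [Lt.s, Lt.d] [Lt.si, Lt.d, Lt.q, Lt.q] (pat hy (rb_3 hy) 4 rfl) h
  · rcases brec_true h with h | h
    · exact mRel_good (T := T) hM0 [Lt.qi, Lt.p, Lt.q, Lt.r, Lt.qi] [Lt.pi, Lt.pi, Lt.r, Lt.qi, Lt.r, Lt.r] (pat hy (rf_12 hy) 8 rfl) h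
    · rcases brec_true h with h | h
      · exact mRel_good (T := T) hM0 [Lt.si, Lt.d, Lt.q, Lt.pi, Lt.qi, Lt.d, Lt.s, Lt.r] [] (pat hy (rb_4 hy) 6 rfl) h
      · exact mRel_good (T := T) hM0 [Lt.p, Lt.p, Lt.d, Lt.si] [Lt.pi, Lt.pi, Lt.qi, Lt.d] (pat hy (rf_6 hy) 6 rfl) h
theorem dM_3_s (hy : Hy g H) (j z1 z2 u : ℕ) (h : dM_3 j z1 z2 u = true) : GdM g H u := by
  unfold dM_3 at h
  rcases brec_true h with h | h
  · rcases brec_true h with h | h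
    · exact mRel_good (T := T) hM0 [Lt.qi, Lt.ri, Lt.ri, Lt.q, Lt.ri, Lt.p, Lt.p, Lt.qi, Lt.p, Lt.q] [Lt.ri] (pat hy (rf_12 hy) 1 rfl) h
    · rcases brec_true h with h | h
      · exact mRel_good (T := T) hM0 [Lt.pi, Lt.ri, Lt.ri, Lt.pi, Lt.r, Lt.r, Lt.p, Lt.p] [Lt.p, Lt.ri] (pat hy (rf_8 hy) 1 rfl) h
      · exact mRel_good (T := T) hM0 [Lt.q, Lt.ri] [Lt.ri, Lt.ri, Lt.q, Lt.ri, Lt.p, Lt.p, Lt.qi, Lt.p, Lt.q] (pat hy (rb_12 hy) 9 rfl) h
  · rcases brec_true h with h | h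
    · rcases brec_true h with h | h
      · exact mRel_good (T := T) hM0 [Lt.pi, Lt.pi, Lt.r, Lt.qi, Lt.pi, Lt.qi, Lt.p, Lt.p, Lt.q] [Lt.r, Lt.qi] (pat hy (rf_10 hy) 1 rfl) h
      · exact mRel_good (T := T) hM0 [Lt.q, Lt.p, Lt.p, Lt.p, Lt.p, Lt.d] [Lt.d, Lt.s] (pat hy (rf_6 hy) 3 rfl) h
    · rcases brec_true h with h | h
      · exact mRel_good (T := T) hM0 [Lt.p, Lt.qi, Lt.qi, Lt.s, Lt.q, Lt.s, Lt.qi, Lt.si, Lt.p, Lt.p] [Lt.qi] (pat hy (rf_13 hy) 8 rfl) h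
      · exact mRel_good (T := T) hM0 [Lt.pi, Lt.q, Lt.r, Lt.si, Lt.pi, Lt.pi, Lt.s] [Lt.q, Lt.pi, Lt.pi, Lt.r] (pat hy (rf_14 hy) 9 rfl) h
theorem dM_4_s (hy : Hy g H) (j z1 z2 u : ℕ) (h : dM_4 j z1 z2 u = true) : GdM g H u := by
  unfold dM_4 at h
  rcases brec_true h with h | h
  · exact dM_2_s hy j z1 z2 u h
  · exact dM_3_s hy j z1 z2 u h
theorem dM_5_s (hy : Hy g H) (j z1 z2 u : ℕ) (h : dM_5 j z1 z2 u = true) : GdM g H u := by
  unfold dM_5 at h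
  rcases brec_true h with h | h
  · rcases brec_true h with h | h
    · exact mRel_good (T := T) hM0 [Lt.s, Lt.d, Lt.pi, Lt.pi] [Lt.d, Lt.q, Lt.p, Lt.p] (pat hy (rb_6 hy) 6 rfl) h
    · rcases brec_true h with h | h
      · exact mRel_good (T := T) hM0 [Lt.p, Lt.p, Lt.qi, Lt.pi, Lt.q] [Lt.r, Lt.si, Lt.p, Lt.p, Lt.s, Lt.ri] (pat hy (rf_14 hy) 6 rfl) h
      · exact mRel_good (T := T) hM0 [Lt.q, Lt.p, Lt.ri, Lt.p, Lt.r, Lt.r] [Lt.p, Lt.p, Lt.q, Lt.ri, Lt.p] (pat hy (rb_11 hy) 3 rfl) h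
  · rcases brec_true h with h | h
    · exact mRel_good (T := T) hM0 [Lt.s, Lt.qi, Lt.d, Lt.q, Lt.si] [Lt.q, Lt.d, Lt.qi] (pat hy (rf_5 hy) 5 rfl) h
    · rcases brec_true h with h | h
      · exact mRel_good (T := T) hM0 [Lt.si, Lt.qi, Lt.s, Lt.q, Lt.d, Lt.qi, Lt.si] [Lt.d, Lt.si, Lt.qi] (pat hy (rf_7 hy) 0 rfl) h
      · exact mRel_good (T := T) hM0 [Lt.pi, Lt.r, Lt.qi, Lt.pi, Lt.qi, Lt.p, Lt.p, Lt.q, Lt.q] [Lt.p, Lt.r] (pat hy (rf_10 hy) 2 rfl) h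
theorem dM_6_s (hy : Hy g H) (j z1 z2 u : ℕ) (h : dM_6 j z1 z2 u = true) : GdM g H u := by
  unfold dM_6 at h
  rcases brec_true h with h | h
  · rcases brec_true h with h | h
    · exact mRel_good (T := T) hM0 [Lt.ri, Lt.pi, Lt.pi, Lt.r, Lt.qi, Lt.pi, Lt.qi] [Lt.qi, Lt.qi, Lt.pi, Lt.pi] (pat hy (rf_10 hy) 0 rfl) h
    · rcases brec_true h with h | h
      · exact mRel_good (T := T) hM0 [Lt.s, Lt.q, Lt.si] [Lt.p, Lt.p, Lt.q, Lt.p, Lt.qi, Lt.qi, Lt.s, Lt.q] (pat hy (rb_13 hy) 6 rfl) h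
      · exact mRel_good (T := T) hM0 [Lt.p, Lt.qi, Lt.d, Lt.s, Lt.ri, Lt.si] [Lt.qi, Lt.d] (pat hy (rf_4 hy) 6 rfl) h
  · rcases brec_true h with h | h
    · rcases brec_true h with h | h
      · exact mRel_good (T := T) hM0 [Lt.r, Lt.r, Lt.d] [Lt.d, Lt.p, Lt.p] (pat hy (rb_2 hy) 3 rfl) h
      · exact mRel_good (T := T) hM0 [Lt.pi, Lt.pi, Lt.s, Lt.q, Lt.si, Lt.qi, Lt.si, Lt.q, Lt.q, Lt.pi] [Lt.q] (pat hy (rb_13 hy) 4 rfl) h
    · rcases brec_true h with h | h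
      · exact mRel_good (T := T) hM0 [Lt.qi, Lt.d, Lt.s] [Lt.p, Lt.qi, Lt.d, Lt.s, Lt.ri] (pat hy (rb_4 hy) 2 rfl) h
      · exact mRel_good (T := T) hM0 [Lt.qi, Lt.pi, Lt.q, Lt.r, Lt.si] [Lt.pi, Lt.pi, Lt.r, Lt.si, Lt.p, Lt.p] (pat hy (rf_14 hy) 8 rfl) h
theorem dM_7_s (hy : Hy g H) (j z1 z2 u : ℕ) (h : dM_7 j z1 z2 u = true) : GdM g H u := by
  unfold dM_7 at h
  rcases brec_true h with h | h
  · exact dM_5_s hy j z1 z2 u h
  · exact dM_6_s hy j z1 z2 u h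
theorem dM_8_s (hy : Hy g H) (j z1 z2 u : ℕ) (h : dM_8 j z1 z2 u = true) : GdM g H u := by
  unfold dM_8 at h
  rcases brec_true h with h | h
  · exact dM_4_s hy j z1 z2 u h
  · exact dM_7_s hy j z1 z2 u h
theorem dM_9_s (hy : Hy g H) (j z1 z2 u : ℕ) (h : dM_9 j z1 z2 u = true) : GdM g H u := by
  unfold dM_9 at h
  rcases brec_true h with h | h
  · rcases brec_true h with h | h
    · exact mRel_good (T := T) hM0 [Lt.q, Lt.r, Lt.qi, Lt.ri, Lt.ri, Lt.q] [Lt.pi, Lt.q, Lt.pi, Lt.pi, Lt.r] (pat hy (rf_12 hy) 10 rfl) h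
    · rcases brec_true h with h | h
      · exact mRel_good (T := T) hM0 [Lt.p, Lt.r, Lt.pi, Lt.pi, Lt.ri] [Lt.pi, Lt.ri, Lt.ri, Lt.p, Lt.r] (pat hy (rf_8 hy) 8 rfl) h
      · exact mRel_good (T := T) hM0 [Lt.qi, Lt.p, Lt.q, Lt.pi, Lt.pi, Lt.r, Lt.si] [Lt.r, Lt.si, Lt.pi, Lt.pi] (pat hy (rb_14 hy) 0 rfl) h
  · rcases brec_true h with h | h
    · exact mRel_good (T := T) hM0 [Lt.pi, Lt.r, Lt.qi, Lt.pi, Lt.qi] [Lt.p, Lt.r, Lt.qi, Lt.qi, Lt.pi, Lt.pi] (pat hy (rf_10 hy) 2 rfl) h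
    · rcases brec_true h with h | h
      · exact mRel_good (T := T) hM0 [Lt.q, Lt.d, Lt.qi, Lt.si, Lt.q] [Lt.si, Lt.q, Lt.s, Lt.d, Lt.si] (pat hy (rf_7 hy) 3 rfl) h
      · exact mRel_good (T := T) hM0 [Lt.s, Lt.s, Lt.s, Lt.s, Lt.s] [] (pat hy (rf_1 hy) 0 rfl) h
theorem dM_10_s (hy : Hy g H) (j z1 z2 u : ℕ) (h : dM_10 j z1 z2 u = true) : GdM g H u := by
  unfold dM_10 at h
  rcases brec_true h with h | h
  · rcases brec_true h with h | h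
    · exact mRel_good (T := T) hM0 [Lt.qi, Lt.qi, Lt.d, Lt.s] [Lt.d, Lt.si] (pat hy (rb_3 hy) 0 rfl) h
    · rcases brec_true h with h | h
      · exact mRel_good (T := T) hM0 [Lt.pi, Lt.pi, Lt.d, Lt.r, Lt.r] [Lt.d] (pat hy (rb_2 hy) 0 rfl) h
      · exact mRel_good (T := T) hM0 [Lt.qi, Lt.qi, Lt.d, Lt.s, Lt.s] [Lt.d] (pat hy (rb_3 hy) 0 rfl) h
  · rcases brec_true h with h | h
    · rcases brec_true h with h | h
      · exact mRel_good (T := T) hM0 [Lt.q, Lt.pi, Lt.qi, Lt.d, Lt.s] [Lt.d, Lt.s, Lt.ri] (pat hy (rb_4 hy) 0 rfl) h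
      · exact mRel_good (T := T) hM0 [Lt.pi, Lt.pi, Lt.qi, Lt.d] [Lt.p, Lt.p, Lt.d, Lt.si] (pat hy (rb_6 hy) 2 rfl) h
    · rcases brec_true h with h | h
      · exact mRel_good (T := T) hM0 [Lt.pi, Lt.q, Lt.p] [Lt.p, Lt.q, Lt.q, Lt.ri, Lt.pi, Lt.pi, Lt.r, Lt.qi] (pat hy (rb_10 hy) 3 rfl) h
      · exact mRel_good (T := T) hM0 [Lt.s, Lt.s, Lt.d, Lt.qi, Lt.qi] [Lt.d] (pat hy (rb_3 hy) 3 rfl) h
theorem dM_11_s (hy : Hy g H) (j z1 z2 u : ℕ) (h : dM_11 j z1 z2 u = true) : GdM g H u := by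
  unfold dM_11 at h
  rcases brec_true h with h | h
  · exact dM_9_s hy j z1 z2 u h
  · exact dM_10_s hy j z1 z2 u h
theorem dM_12_s (hy : Hy g H) (j z1 z2 u : ℕ) (h : dM_12 j z1 z2 u = true) : GdM g H u := by
  unfold dM_12 at h
  rcases brec_true h with h | h
  · rcases brec_true h with h | h
    · exact mRel_good (T := T) hM0 [Lt.pi, Lt.pi, Lt.q, Lt.pi, Lt.r] [Lt.q, Lt.r, Lt.qi, Lt.pi, Lt.pi, Lt.q] (pat hy (rb_9 hy) 1 rfl) h
    · rcases brec_true h with h | h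
      · exact mRel_good (T := T) hM0 [Lt.qi, Lt.d, Lt.s, Lt.r] [Lt.p, Lt.qi, Lt.d, Lt.s] (pat hy (rb_4 hy) 2 rfl) h
      · exact mRel_good (T := T) hM0 [Lt.p, Lt.p, Lt.q] [Lt.s, Lt.q, Lt.si, Lt.qi, Lt.si, Lt.q, Lt.q, Lt.pi] (pat hy (rf_13 hy) 5 rfl) h
  · rcases brec_true h with h | h
    · exact mRel_good (T := T) hM0 [Lt.r, Lt.pi, Lt.pi, Lt.ri, Lt.ri] [Lt.pi, Lt.pi, Lt.ri, Lt.ri, Lt.p] (pat hy (rf_8 hy) 9 rfl) h
    · rcases brec_true h with h | h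
      · exact mRel_good (T := T) hM0 [Lt.ri, Lt.pi, Lt.r, Lt.r, Lt.p, Lt.p, Lt.r] [Lt.r, Lt.p, Lt.p] (pat hy (rf_8 hy) 3 rfl) h
      · exact mRel_good (T := T) hM0 [Lt.pi, Lt.d, Lt.r] [Lt.p, Lt.d, Lt.ri] (pat hy (rb_2 hy) 1 rfl) h
theorem dM_13_s (hy : Hy g H) (j z1 z2 u : ℕ) (h : dM_13 j z1 z2 u = true) : GdM g H u := by
  unfold dM_13 at h
  rcases brec_true h with h | h
  · rcases brec_true h with h | h
    · exact mRel_good (T := T) hM0 [Lt.qi, Lt.qi] [Lt.d, Lt.si, Lt.si, Lt.d] (pat hy (rb_3 hy) 0 rfl) h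
    · rcases brec_true h with h | h
      · exact mRel_good (T := T) hM0 [Lt.ri, Lt.p, Lt.r] [Lt.r, Lt.p, Lt.p, Lt.r, Lt.pi, Lt.pi, Lt.ri] (pat hy (rb_8 hy) 4 rfl) h
      · exact mRel_good (T := T) hM0 [Lt.q, Lt.ri, Lt.qi, Lt.pi, Lt.pi, Lt.q, Lt.pi] [Lt.pi, Lt.pi, Lt.q, Lt.ri] (pat hy (rb_9 hy) 9 rfl) h
  · rcases brec_true h with h | h
    · rcases brec_true h with h | h
      · exact mRel_good (T := T) hM0 [Lt.qi, Lt.pi, Lt.pi, Lt.s, Lt.q] [Lt.p, Lt.qi, Lt.qi, Lt.s, Lt.q, Lt.s] (pat hy (rb_13 hy) 3 rfl) h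
      · exact mRel_good (T := T) hM0 [Lt.q, Lt.q, Lt.d, Lt.si, Lt.si] [Lt.d] (pat hy (rf_3 hy) 4 rfl) h
    · rcases brec_true h with h | h
      · exact mRel_good (T := T) hM0 [Lt.ri, Lt.p, Lt.p, Lt.r, Lt.qi, Lt.qi, Lt.pi, Lt.pi, Lt.q] [Lt.qi, Lt.pi] (pat hy (rb_10 hy) 7 rfl) h
      · exact mRel_good (T := T) hM0 [Lt.qi, Lt.pi, Lt.pi, Lt.q, Lt.pi, Lt.r, Lt.qi] [Lt.r, Lt.qi, Lt.pi, Lt.pi] (pat hy (rb_9 hy) 0 rfl) h
theorem dM_14_s (hy : Hy g H) (j z1 z2 u : ℕ) (h : dM_14 j z1 z2 u = true) : GdM g H u := by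
  unfold dM_14 at h
  rcases brec_true h with h | h
  · exact dM_12_s hy j z1 z2 u h
  · exact dM_13_s hy j z1 z2 u h
theorem dM_15_s (hy : Hy g H) (j z1 z2 u : ℕ) (h : dM_15 j z1 z2 u = true) : GdM g H u := by
  unfold dM_15 at h
  rcases brec_true h with h | h
  · exact dM_11_s hy j z1 z2 u h
  · exact dM_14_s hy j z1 z2 u h
theorem dM_16_s (hy : Hy g H) (j z1 z2 u : ℕ) (h : dM_16 j z1 z2 u = true) : GdM g H u := by
  unfold dM_16 at h
  rcases brec_true h with h | h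
  · exact dM_8_s hy j z1 z2 u h
  · exact dM_15_s hy j z1 z2 u h
theorem dM_17_s (hy : Hy g H) (j z1 z2 u : ℕ) (h : dM_17 j z1 z2 u = true) : GdM g H u := by
  unfold dM_17 at h
  rcases brec_true h with h | h
  · exact dM_1_s hy j z1 z2 u h
  · exact dM_16_s hy j z1 z2 u h
theorem dM_18_s (hy : Hy g H) (j z1 z2 u : ℕ) (h : dM_18 j z1 z2 u = true) : GdM g H u := by
  unfold dM_18 at h
  rcases brec_true h with h | h
  · exact dM_0_s hy j z1 z2 u h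
  · exact dM_17_s hy j z1 z2 u h
theorem sndM (hy : Hy g H) (u : ℕ) (h : chkM u = true) :
    MG u < A → MG u % M < u ∧ GdM g H u := by
  intro hA
  unfold chkM at h
  cases hb : Nat.ble A (MG u) with
  | true => exact absurd (le_of_ble hb) (by omega)
  | false =>
    rw [hb] at h
    obtain ⟨h1, h2⟩ := band_eq_true.1 h
    exact ⟨le_of_ble h1, dM_18_s hy _ _ _ _ h2⟩
theorem sndN (hy : Hy g H)
    (u : ℕ) (hu : u < M) (h : chkP u = true) : (∀ x, (T x u < A ∧ Gd g H x u) ∨ (A ≤ T x u ∧ MG u < A)) ∧ (MG u < A → MG u % M < u ∧ GdM g H u) := by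
  unfold chkP at h
  cases hb : Nat.ble M u with
  | true => exact absurd (le_of_ble hb) (by omega)
  | false =>
    rw [hb] at h
    change chkN u = true at h
    unfold chkN at h
    obtain ⟨h0, h⟩ := band_eq_true.1 h
    obtain ⟨h1, h⟩ := band_eq_true.1 h
    obtain ⟨h2, h⟩ := band_eq_true.1 h
    obtain ⟨h3, h⟩ := band_eq_true.1 h
    obtain ⟨h4, h⟩ := band_eq_true.1 h
    obtain ⟨h5, h⟩ := band_eq_true.1 h
    obtain ⟨h6, h⟩ := band_eq_true.1 h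
    obtain ⟨h7, h⟩ := band_eq_true.1 h
    obtain ⟨h8, h⟩ := band_eq_true.1 h
    refine ⟨?_, sndM hy u h⟩
    intro x
    cases x
    · exact snc_p hy _ u hu h0
    · exact snc_pi hy _ u hu h1
    · exact snc_q hy _ u hu h2
    · exact snc_qi hy _ u hu h3
    · exact snc_r hy _ u hu h4
    · exact snc_ri hy _ u hu h5
    · exact snc_s hy _ u hu h6
    · exact snc_si hy _ u hu h7
    · exact snc_d hy _ u hu h8
theorem final (hinv : ∀ x, g (inv x) = (g x)⁻¹) (hr : ∀ r ∈ rels, (r.map g).prod = 1) (hH : ∀ r ∈ subs, (r.map g).prod ∈ H)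
    (hall : ∀ u, u < M → chkP u = true) (hc : cntB liveP 8 0 = 42) :
    H.relIndex (Subgroup.closure (Set.range g)) ≤ 42 ∧ H.relIndex (Subgroup.closure (Set.range g)) ≠ 0 := by
  have hn := fun u hu => sndN ⟨hinv, hr, hH⟩ u hu (hall u hu)
  have h1 : ∀ x u, u < M → T x u < A → Good (fa g) T MG M (cP g H) x u := by
    intro x u hu hx
    rcases (hn u hu).1 x with h | h
    · exact h.2
    · exact absurd h.1 (by omega)
  have h2 : ∀ u, u < M → MG u < A → GoodM (fa g) T MG M (cP g H) u := fun u hu h => ((hn u hu).2 h).2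
  refine relIndex_le (M := M) (A := A) (T := T) (MG := MG) (c := cP g H) (by decide) cc_zero (sound_of_good h1 h2) ?_ ?_ ?_
  · intro u hu h
    exact ((hn u hu).2 h).1
  · intro x u hu h
    rcases (hn u hu).1 x with h' | h'
    · exact h'.1
    · exact absurd h'.2 (by omega)
  · rw [← hc, ← cntB_spec]
    apply Finset.card_le_card
    intro u
    simp only [Finset.mem_filter, Finset.mem_Ico]
    rintro ⟨⟨_, h3⟩, h4⟩
    refine ⟨⟨Nat.zero_le _, lt_of_lt_of_le h3 (by decide)⟩, ?_⟩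
    unfold liveP
    cases hb : Nat.ble M u with
    | true => exact absurd (le_of_ble hb) (by omega)
    | false => exact h4
end
end H64.TCMCC
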